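import Cfsg.Agent.H6.HNR.I.D

set_option autoImplicit false
set_option maxRecDepth 100000
set_option Elab.async false

namespace Cfsg.H6.HNR.I

theorem ea : eaChk chk 434321399574757888 sg 4 = true := by decide +kernel

theorem li4 : linChk chk 434321399574757888 sg 4 A 4 = true := by decide +kernel

theorem li8 : linChk chk 434321399574757888 sg 4 A 8 = true := by decide +kernel

theorem co3 : allR (cosChk chk 434321399574757888 sg 4 4 M (Cs.map Prod.fst)) 24 8 = true := by decide +kernel

theorem co7 : allR (cosChk chk 434321399574757888 sg 4 4 M (Cs.map Prod.fst)) 56 8 = true := by decide +kernel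

end Cfsg.H6.HNR.I
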